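import Cfsg.Agent.Lib.Schur.Fi23c.E4.C0

namespace Cfsg.Agent.Lib.Schur.Fi23c.E4.Main

open Cfsg.Agent.Lib.TC.Core Cfsg.Agent.Lib.TC.Enc Cfsg.Agent.Lib.TC.Pres Cfsg.Agent.Lib.TC.Perm Cfsg.Agent.Lib.TC.Main Cfsg.Agent.Lib.TC.Chain

set_option maxRecDepth 100000

open Cfsg.Agent.Lib.Schur.Fi23c.E4.Tab

theorem all0 : cert.chkRange 0 16 = true := Cfsg.Agent.Lib.Schur.Fi23c.E4.C0.ok

theorem hFinal : cert.chkFinal 0 16 = true := by decide +kernel

theorem h0 : cert.eLvl (cert.par (cert.find cert.MAX cert.D 0)) = cert.MAX := by decide +kernel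

theorem hcount : cert.countRoots cert.N = 16 := by
  rw [countRoots_eq_acc]
  decide +kernel

theorem hchecked : Checked cert where
  hN := by decide
  hC := all0
  hF := hFinal
  h0 := h0

theorem h1 : chkRelRots cert inv' rels' witT.get = true := by decide +kernel

theorem h2 : chkSubRots cert subs' = true := by decide +kernel

theorem hk : cert.k = ls.length := by decide

end Cfsg.Agent.Lib.Schur.Fi23c.E4.Main
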