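import Cfsg.Agent.Lib.TC.Enc

namespace Cfsg.Agent.Lib.Schur.Fi23c.E4.CT0

open Cfsg.Agent.Lib.TC.Enc

set_option maxRecDepth 100000

/-- A part of the chunks of the certificate. -/
noncomputable def tree : Tr Nat :=
(Tr.leaf (nat_lit 0x9c0a18e973f9f1f9cdf9a7f98741401f299d255d22bb183d1d58284b624361dae003a28f20a9050963e863db4bb4e3ca6c2120a08b726a6e0d7e2b6d496a2014114cef6e094c854c690c0b8283a573216031d55d582da160507429bcad5428ab27052f8a0a1854336491746095477450c1430672ee9628781098ec75982801d05ccbbd4d2d4c954c42050c1129a15b31f6a143a13440a00636052d621c9320331e44140084584300636a228242c00282044184390430084d00280050e003d802d001c8000084))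

end Cfsg.Agent.Lib.Schur.Fi23c.E4.CT0
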